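import Cfsg.Agent.Lib.Helper57.OE.Defs2
import Cfsg.Agent.Lib.Helper58.Asch.L0a
import Cfsg.Agent.Lib.Helper55.Asch.DecCore

set_option autoImplicit false
set_option linter.unusedSectionVars false

/-! common tools for the pieces YF1 YP2 YP3 YP4 of helper99's farm -/

namespace Cfsg.Agent.Lib.Helper81.OE

open Cfsg Cfsg.Geo Matrix Cfsg.Agent.Lib.Helper13.Asch Cfsg.Agent.Lib.Helper90.Sp
open Cfsg.Agent.Lib.Helper57.OE
open scoped Kronecker MatrixGroups

variable {ι : Type} [Fintype ι] [DecidableEq ι] {F : Type*} [Field F] {Q : (ι → F) → F}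

theorem exists_perm_mem {H : Subgroup (GL ι F)} {t : ℕ} {D : Fin t → Submodule F (ι → F)}
    (hHD : H ≤ decompositionStabilizer D) (h : GL ι F) (hh : h ∈ H) :
    ∃ σ : Equiv.Perm (Fin t), ∀ i, ∀ v ∈ D i, (h : Matrix ι ι F) *ᵥ v ∈ D (σ i) := by
  obtain ⟨σ, hσ⟩ := hHD hh
  refine ⟨σ, fun i v hv => ?_⟩
  rw [← hσ i]
  exact ⟨v, hv, by simp [Matrix.toLin'_apply]⟩

theorem Q_mulVec {H : Subgroup (GL ι F)} (hH : FixesQuadForm (matrixSet H) Q) (h : GL ι F)
    (hh : h ∈ H) (v : ι → F) : Q ((h : Matrix ι ι F) *ᵥ v) = Q v :=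
  hH _ ⟨h, hh, rfl⟩ v

theorem polar_self' (hQ : IsNondegenerateQuadraticForm Q) (v : ι → F) :
    QuadraticMap.polar Q v v = 2 * Q v := by
  unfold QuadraticMap.polar
  have : v + v = (2 : F) • v := by rw [two_smul]
  rw [this, hQ.smul]
  ring

theorem polar_sum_right (hQ : IsNondegenerateQuadraticForm Q) {κ : Type*} (s : Finset κ)
    (z : ι → F) (c : κ → F) (b : κ → (ι → F)) :
    QuadraticMap.polar Q z (∑ x ∈ s, c x • b x) = ∑ x ∈ s, c x * QuadraticMap.polar Q z (b x) := by
  classical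
  induction s using Finset.induction_on with
  | empty =>
    simp only [Finset.sum_empty]
    have := hQ.polar_bilinear.smul_right 0 z 0
    simpa using this
  | insert a s ha ih =>
    rw [Finset.sum_insert ha, Finset.sum_insert ha, hQ.polar_bilinear.add_right,
      hQ.polar_bilinear.smul_right, ih]

theorem linearIndependent_of_dual (hQ : IsNondegenerateQuadraticForm Q) {κ : Type*} [Fintype κ]
    [DecidableEq κ] (b : κ → (ι → F))
    (h : ∀ x, ∃ z : ι → F, ∀ y, QuadraticMap.polar Q z (b y) = if y = x then 1 else 0) :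
    LinearIndependent F b := by
  rw [Fintype.linearIndependent_iff]
  intro c hc x
  obtain ⟨z, hz⟩ := h x
  have h1 := polar_sum_right hQ Finset.univ z c b
  rw [hc] at h1
  have h0 : QuadraticMap.polar Q z 0 = 0 := by
    have := hQ.polar_bilinear.smul_right 0 z 0
    simpa using this
  rw [h0] at h1
  simp only [hz, mul_ite, mul_one, mul_zero, Finset.sum_ite_eq', Finset.mem_univ, if_true] at h1
  exact h1.symm

theorem le_stab_span {H : Subgroup (GL ι F)} (S : Set (ι → F))
    (h : ∀ g ∈ H, ∀ v ∈ S, (g : Matrix ι ι F) *ᵥ v ∈ Submodule.span F S) :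
    H ≤ subspaceStabilizer (Submodule.span F S) := by
  apply Cfsg.Agent.Lib.Helper58.Asch.le_subspaceStabilizer
  rintro _ ⟨g, hg, rfl⟩
  rw [Submodule.map_span_le]
  intro v hv
  have := h g hg v hv
  simpa [Matrix.toLin'_apply] using this

end Cfsg.Agent.Lib.Helper81.OE
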