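import Cfsg.Agent.Lib.Helper81.OE.YF1core
import Cfsg.Agent.Lib.Helper84.OE.YRS

set_option autoImplicit false
set_option linter.unusedSectionVars false

namespace Cfsg.Agent.Lib.Helper81.OE

open Cfsg Cfsg.Geo Matrix Cfsg.Agent.Lib.Helper13.Asch Cfsg.Agent.Lib.Helper90.Sp
open Cfsg.Agent.Lib.Helper57.OE
open scoped Kronecker MatrixGroups

variable {ι : Type} [Fintype ι] [DecidableEq ι] {F : Type*} [Field F] {Q : (ι → F) → F}

/-- YF1 -/
theorem rsub_of_lines [Fintype F] (hQ : IsNondegenerateQuadraticForm Q) {H : Subgroup (GL ι F)}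
    (hH : FixesQuadForm (matrixSet H) Q) {t : ℕ} (D : Fin t → Submodule F (ι → F))
    (hD : IsOrthogonalMDecomposition Q 1 D) (hHD : H ≤ decompositionStabilizer D)
    (hq : ¬ (Fintype.card F).Prime) : RSub Q H :=
  rsub_of_lines_core
    (fun hQ _ F₀ r hr hcard ζ hζ _ _ b hli hκ hQb hBb hH =>
      Cfsg.Agent.Lib.Helper84.OE.rsub_of_rational_basis hQ F₀ r hr hcard ζ hζ b hli hκ hQb hBb hH)
    hQ hH D hD hHD hq

end Cfsg.Agent.Lib.Helper81.OE
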