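import Cfsg.Agent.Lib.Helper81.OE.YBase
import Cfsg.Agent.Lib.Helper69.OAsch.O6

set_option autoImplicit false
set_option linter.unusedSectionVars false

namespace Cfsg.Agent.Lib.Helper81.OE

open Cfsg Cfsg.Geo Matrix Cfsg.Agent.Lib.Helper13.Asch Cfsg.Agent.Lib.Helper90.Sp
open Cfsg.Agent.Lib.Helper57.OE
open scoped Kronecker MatrixGroups

variable {ι : Type} [Fintype ι] [DecidableEq ι] {F : Type*} [Field F] {Q : (ι → F) → F}

/-- the statement of the piece YRS (helper84), as a hypothesis -/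
def YRSstmt (ι : Type) [Fintype ι] [DecidableEq ι] (F : Type*) [Field F] [Fintype F]
    (Q : (ι → F) → F) : Prop :=
  ∀ (_ : IsNondegenerateQuadraticForm Q)
    {H : Subgroup (GL ι F)} (F₀ : Subfield F) (r : ℕ) (_ : r.Prime)
    (_ : Fintype.card F = Nat.card F₀ ^ r) (ζ : F) (_ : ζ ≠ 0) {κ : Type} [Fintype κ]
    (b : κ → (ι → F)) (_ : LinearIndependent F b) (_ : Fintype.card κ = Fintype.card ι)
    (_ : ∀ x, ζ * Q (b x) ∈ F₀) (_ : ∀ x y, ζ * QuadraticMap.polar Q (b x) (b y) ∈ F₀)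
    (_ : ∀ h ∈ H, ∀ x, ∃ u : κ → F, (∀ y, u y ∈ F₀) ∧
      (h : Matrix ι ι F) *ᵥ b x = ∑ y, u y • b y), RSub Q H

/-- the frame vectors -/
theorem exists_frame' (hQ : IsNondegenerateQuadraticForm Q) {t : ℕ} {D : Fin t → Submodule F (ι → F)}
    (hDD : IsOrthogonalMDecomposition Q 1 D) :
    ∃ (v : Fin t → (ι → F)) (l : F), l ≠ 0 ∧ (∀ i, v i ∈ D i) ∧ (∀ i, v i ≠ 0) ∧
      (∀ i, Q (v i) = l) ∧ (∀ i, ∀ w ∈ D i, ∃ c : F, w = c • v i) := by
  have hdec := hDD.decomp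
  have ht : 0 < t := by have := hdec.decomp.two_le; omega
  let i₀ : Fin t := ⟨0, ht⟩
  have hfr := hdec.decomp.finrank_eq
  obtain ⟨w₀, hw₀⟩ : ∃ w : D i₀, w ≠ 0 := by
    have : Nontrivial (D i₀) := Module.nontrivial_of_finrank_pos (R := F) (by rw [hfr]; exact one_pos)
    exact exists_ne 0
  choose e he using fun i => hDD.isometric i₀ i
  have hv0 : ∀ i, e i w₀ ≠ 0 := fun i h => hw₀ ((e i).map_eq_zero_iff.mp h)
  have hspan : ∀ i, ∀ w ∈ D i, ∃ c : F, w = c • ((e i w₀ : D i) : ι → F) := by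
    intro i w hw
    obtain ⟨c, hc⟩ := (finrank_eq_one_iff_of_nonzero' (e i w₀) (hv0 i)).mp (hfr i) ⟨w, hw⟩
    exact ⟨c, by rw [← Submodule.coe_smul, hc]⟩
  refine ⟨fun i => ((e i w₀ : D i) : ι → F), Q (w₀ : ι → F), ?_, fun i => (e i w₀).2,
    fun i h => hv0 i (Subtype.ext h), fun i => by rw [he i w₀], hspan⟩
  have hw₀' : (w₀ : ι → F) ≠ 0 := fun h => hw₀ (Subtype.ext h)
  obtain ⟨⟨x, hx, hxw⟩, -⟩ := hdec.nondegenerate i₀ w₀ w₀.2 hw₀'
  obtain ⟨c, hc⟩ := (finrank_eq_one_iff_of_nonzero' w₀ hw₀).mp (hfr i₀) ⟨x, hx⟩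
  have hc' : x = c • (w₀ : ι → F) := by rw [← Submodule.coe_smul, hc]
  intro h0
  apply hxw
  rw [hc', hQ.polar_bilinear.smul_left, polar_self' hQ, h0]
  ring

theorem rsub_of_lines_core [Fintype F] (hYRS : YRSstmt ι F Q) (hQ : IsNondegenerateQuadraticForm Q)
    {H : Subgroup (GL ι F)}
    (hH : FixesQuadForm (matrixSet H) Q) {t : ℕ} (D : Fin t → Submodule F (ι → F))
    (hD : IsOrthogonalMDecomposition Q 1 D) (hHD : H ≤ decompositionStabilizer D)
    (hq : ¬ (Fintype.card F).Prime) : RSub Q H := by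
  obtain ⟨v, l, hl, hvD, hv0, hvQ, hvspan⟩ := exists_frame' hQ hD
  have hdec := hD.decomp
  have hli : LinearIndependent F v := hdec.decomp.indep.linearIndependent D hvD hv0
  obtain ⟨F₁, r, -, hr, hcard, -, -⟩ :=
    Cfsg.Agent.Lib.Helper35.Asch.exists_sigma (⊥ : Subfield F)
      (Cfsg.Agent.Lib.Helper69.OAsch.bot_ne_top_of_not_prime hq)
  have hct := Cfsg.Agent.Lib.Helper55.Asch.card_of_decomp D hdec.decomp
  refine hYRS hQ F₁ r hr hcard l⁻¹ (inv_ne_zero hl) v hli (by rw [Fintype.card_fin, ← hct, mul_one])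
    ?_ ?_ ?_
  · intro x
    rw [hvQ, inv_mul_cancel₀ hl]
    exact F₁.one_mem
  · intro x y
    by_cases hxy : x = y
    · subst hxy
      rw [polar_self' hQ, hvQ]
      have : l⁻¹ * (2 * l) = 2 := by field_simp
      rw [this]
      exact F₁.add_mem F₁.one_mem F₁.one_mem |> fun h => by
        have e : (2 : F) = 1 + 1 := by norm_num
        rw [e]; exact h
    · rw [hdec.orthogonal x y hxy _ (hvD x) _ (hvD y), mul_zero]
      exact F₁.zero_mem
  · intro h hh x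
    obtain ⟨σ, hσ⟩ := exists_perm_mem hHD h hh
    obtain ⟨c, hc⟩ := hvspan _ _ (hσ x _ (hvD x))
    have h2 := Q_mulVec hH h hh (v x)
    rw [hc, hQ.smul, hvQ, hvQ] at h2
    have h3 : c ^ 2 = 1 := mul_right_cancel₀ hl (by rw [h2, one_mul])
    have h4 : (c - 1) * (c + 1) = 0 := by linear_combination h3
    have hcF : c ∈ F₁ := by
      rcases mul_eq_zero.mp h4 with h5 | h5
      · rw [sub_eq_zero.mp h5]; exact F₁.one_mem
      · rw [eq_neg_of_add_eq_zero_left h5]; exact F₁.neg_mem F₁.one_mem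
    refine ⟨Pi.single (σ x) c, ?_, ?_⟩
    · intro y
      by_cases hy : y = σ x
      · subst hy; simpa using hcF
      · rw [Pi.single_eq_of_ne hy]; exact F₁.zero_mem
    · rw [hc, Finset.sum_eq_single (σ x)]
      · simp
      · intro b _ hb
        rw [Pi.single_eq_of_ne hb, zero_smul]
      · simp

end Cfsg.Agent.Lib.Helper81.OE
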