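import Mathlib

set_option autoImplicit false

/-! local computations in a hyperbolic plane over `F_4`, `F_5` (helper99 farm, pieces YP4a, YP5) -/

namespace Cfsg.Agent.Lib.Helper81.OE

variable {ι : Type} {F : Type*} [Field F] {Q : (ι → F) → F}

theorem five_local_core [Fintype F] (hq : Fintype.card F = 5) (X : Submodule F (ι → F))
    (e f : ι → F) (he : e ∈ X) (hf : f ∈ X)
    (hall : ∀ v ∈ X, ∃ a b : F, v = a • e + b • f) (hQ : ∀ a b : F, Q (a • e + b • f) = a * b) :
    ∃ b : Fin 2 → (ι → F), (∀ j, b j ∈ X ∧ Q (b j) = 1) ∧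
      (∀ j j', j ≠ j' → QuadraticMap.polar Q (b j) (b j') = 0) ∧
      ∀ v ∈ X, Q v = 1 → ∃ j, v = b j ∨ v = - b j := by
  have h5 : (5 : F) = 0 := by
    have := Nat.cast_card_eq_zero F
    rw [hq] at this
    exact_mod_cast this
  have hpow : ∀ x : F, x ^ 5 = x := by
    intro x
    have := FiniteField.pow_card x
    rwa [hq] at this
  have hQ0 : Q ((1 : F) • e + (1 : F) • f) = 1 := by rw [hQ]; ring
  have hQ1 : Q ((2 : F) • e + (3 : F) • f) = 1 := by rw [hQ]; linear_combination h5
  have hpol : QuadraticMap.polar Q ((1 : F) • e + (1 : F) • f) ((2 : F) • e + (3 : F) • f) = 0 := by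
    unfold QuadraticMap.polar
    have : (1 : F) • e + (1 : F) • f + ((2 : F) • e + (3 : F) • f) = (3 : F) • e + (4 : F) • f := by
      module
    rw [this, hQ0, hQ1, hQ]
    linear_combination 2 * h5
  have hpol' : QuadraticMap.polar Q ((2 : F) • e + (3 : F) • f) ((1 : F) • e + (1 : F) • f) = 0 := by
    rw [QuadraticMap.polar_comm]; exact hpol
  refine ⟨![(1 : F) • e + (1 : F) • f, (2 : F) • e + (3 : F) • f], ?_, ?_, ?_⟩
  · intro j
    fin_cases j
    · exact ⟨X.add_mem (X.smul_mem _ he) (X.smul_mem _ hf), hQ0⟩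
    · exact ⟨X.add_mem (X.smul_mem _ he) (X.smul_mem _ hf), hQ1⟩
  · intro j j' hjj'
    fin_cases j <;> fin_cases j'
    · exact absurd rfl hjj'
    · exact hpol
    · exact hpol'
    · exact absurd rfl hjj'
  · intro v hv hQv
    obtain ⟨x, y, rfl⟩ := hall v hv
    rw [hQ] at hQv
    have hx : x * (x - 1) * (x - 2) * (x - 3) * (x - 4) = 0 := by
      linear_combination hpow x + (-2 * x ^ 4 + 7 * x ^ 3 - 10 * x ^ 2 + 5 * x) * h5
    rcases mul_eq_zero.mp hx with hx | hx
    · rcases mul_eq_zero.mp hx with hx | hx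
      · rcases mul_eq_zero.mp hx with hx | hx
        · rcases mul_eq_zero.mp hx with hx | hx
          · exfalso
            rw [hx, zero_mul] at hQv
            exact zero_ne_one hQv
          · have hx1 : x = 1 := by linear_combination hx
            have hy1 : y = 1 := by rw [hx1] at hQv; linear_combination hQv
            exact ⟨0, Or.inl (by rw [hx1, hy1]; rfl)⟩
        · have hx1 : x = 2 := by linear_combination hx
          have hy1 : y = 3 := by rw [hx1] at hQv; linear_combination 3 * hQv - y * h5
          exact ⟨1, Or.inl (by rw [hx1, hy1]; rfl)⟩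
      · have hx1 : x = -2 := by linear_combination hx + h5
        have hy1 : y = -3 := by rw [hx1] at hQv; linear_combination (-3) * hQv - y * h5
        refine ⟨1, Or.inr ?_⟩
        rw [hx1, hy1]
        show _ = -((2 : F) • e + (3 : F) • f)
        module
    · have hx1 : x = -1 := by linear_combination hx + h5
      have hy1 : y = -1 := by rw [hx1] at hQv; linear_combination (-1) * hQv
      refine ⟨0, Or.inr ?_⟩
      rw [hx1, hy1]
      show _ = -((1 : F) • e + (1 : F) • f)
      module

theorem four_local_core [Fintype F] (hq : Fintype.card F = 4) (X : Submodule F (ι → F))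
    (e f : ι → F) (he : e ∈ X) (hf : f ∈ X)
    (hall : ∀ v ∈ X, ∃ a b : F, v = a • e + b • f) (hQ : ∀ a b : F, Q (a • e + b • f) = a * b) :
    ∃ a b : ι → F, a ∈ X ∧ b ∈ X ∧ Q a = 1 ∧ Q b = 1 ∧ QuadraticMap.polar Q a b = 1 ∧
      ∀ v ∈ X, Q v = 1 → v = a ∨ v = b ∨ v = a + b := by
  classical
  have h4 : (4 : F) = 0 := by
    have := Nat.cast_card_eq_zero F
    rw [hq] at this
    exact_mod_cast this
  have h2 : (2 : F) = 0 := by
    have : (2 : F) * 2 = 0 := by linear_combination h4
    exact mul_self_eq_zero.mp this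
  have hpow : ∀ x : F, x ≠ 0 → x ^ 3 = 1 := by
    intro x hx
    have := FiniteField.pow_card_sub_one_eq_one x hx
    rwa [hq] at this
  obtain ⟨w, hw0, hw1⟩ : ∃ w : F, w ≠ 0 ∧ w ≠ 1 := by
    by_contra hcon
    push Not at hcon
    have : (Finset.univ : Finset F) ⊆ {0, 1} := by
      intro x _
      by_cases hx : x = 0
      · simp [hx]
      · simp [hcon x hx]
    have h := Finset.card_le_card this
    have h' : ({0, 1} : Finset F).card ≤ 2 := Finset.card_le_two
    rw [Finset.card_univ, hq] at h
    omega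
  have hw3 := hpow w hw0
  have hw : w ^ 2 + w + 1 = 0 := by
    have : (w - 1) * (w ^ 2 + w + 1) = 0 := by linear_combination hw3
    rcases mul_eq_zero.mp this with h | h
    · exact absurd (by linear_combination h) hw1
    · exact h
  have hQa : Q ((1 : F) • e + (1 : F) • f) = 1 := by rw [hQ]; ring
  have hQb : Q (w • e + (w ^ 2) • f) = 1 := by rw [hQ]; linear_combination hw3
  refine ⟨(1 : F) • e + (1 : F) • f, w • e + (w ^ 2) • f,
    X.add_mem (X.smul_mem _ he) (X.smul_mem _ hf), X.add_mem (X.smul_mem _ he) (X.smul_mem _ hf),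
    hQa, hQb, ?_, ?_⟩
  · unfold QuadraticMap.polar
    have : (1 : F) • e + (1 : F) • f + (w • e + (w ^ 2) • f) = (1 + w) • e + (1 + w ^ 2) • f := by
      module
    rw [this, hQa, hQb, hQ]
    linear_combination hw + hw3 - h2
  · intro v hv hQv
    obtain ⟨x, y, rfl⟩ := hall v hv
    rw [hQ] at hQv
    have hx0 : x ≠ 0 := by
      rintro rfl
      rw [zero_mul] at hQv
      exact zero_ne_one hQv
    have hx3 := hpow x hx0
    have hy : y = x ^ 2 := by linear_combination (-y) * hx3 + x ^ 2 * hQv
    have hx : (x - 1) * (x - w) * (x - w ^ 2) = 0 := by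
      linear_combination hx3 - w ^ 0 * hw3 + (- x ^ 2 + w * x) * hw
    rcases mul_eq_zero.mp hx with hx | hx
    · rcases mul_eq_zero.mp hx with hx | hx
      · have hx1 : x = 1 := by linear_combination hx
        left
        rw [hy, hx1]
        simp
      · have hx1 : x = w := by linear_combination hx
        right; left
        rw [hy, hx1]
    · have hx1 : x = w ^ 2 := by linear_combination hx
      right; right
      rw [hy, hx1]
      have e1 : w ^ 2 = 1 + w := by linear_combination hw - (1 + w) * h2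
      have e2 : (w ^ 2) ^ 2 = 1 + w ^ 2 := by linear_combination w * hw3 + hw - (1 + w ^ 2) * h2 - w ^ 0 * 0
      rw [e2]
      nth_rewrite 1 [e1]
      module

end Cfsg.Agent.Lib.Helper81.OE
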