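import Cfsg.Agent.Lib.Helper84.OE.YHP
import Cfsg.Agent.Lib.Helper81.OE.YPloc

set_option autoImplicit false
set_option linter.unusedSectionVars false

namespace Cfsg.Agent.Lib.Helper81.OE

open Cfsg Cfsg.Geo Matrix Cfsg.Agent.Lib.Helper13.Asch Cfsg.Agent.Lib.Helper90.Sp
open Cfsg.Agent.Lib.Helper57.OE
open scoped Kronecker MatrixGroups

variable {ι : Type} [Fintype ι] [DecidableEq ι] {F : Type*} [Field F] {Q : (ι → F) → F}

/-- YP4a -/
theorem plane_plus_four_local [Fintype F] (hq : Fintype.card F = 4)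
    (hQ : IsNondegenerateQuadraticForm Q) (X : Submodule F (ι → F))
    (hnd : IsNondegenerateOn (QuadraticMap.polar Q) X) (hdim : Module.finrank F X = 2)
    (hplus : IsPlusTypeOn Q X) :
    ∃ a b : ι → F, a ∈ X ∧ b ∈ X ∧ Q a = 1 ∧ Q b = 1 ∧ QuadraticMap.polar Q a b = 1 ∧
      ∀ v ∈ X, Q v = 1 → v = a ∨ v = b ∨ v = a + b := by
  obtain ⟨e, f, he, hf, -, -, -, hall, hQef⟩ :=
    Cfsg.Agent.Lib.Helper84.OE.hyperbolic_plane hQ X hnd hdim hplus
  exact four_local_core hq X e f he hf hall hQef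

/-- YP5 -/
theorem plane_plus_five_local [Fintype F] (hq : Fintype.card F = 5)
    (hQ : IsNondegenerateQuadraticForm Q) (X : Submodule F (ι → F))
    (hnd : IsNondegenerateOn (QuadraticMap.polar Q) X) (hdim : Module.finrank F X = 2)
    (hplus : IsPlusTypeOn Q X) :
    ∃ b : Fin 2 → (ι → F), (∀ j, b j ∈ X ∧ Q (b j) = 1) ∧
      (∀ j j', j ≠ j' → QuadraticMap.polar Q (b j) (b j') = 0) ∧
      ∀ v ∈ X, Q v = 1 → ∃ j, v = b j ∨ v = - b j := by
  obtain ⟨e, f, he, hf, -, -, -, hall, hQef⟩ :=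
    Cfsg.Agent.Lib.Helper84.OE.hyperbolic_plane hQ X hnd hdim hplus
  exact five_local_core hq X e f he hf hall hQef

end Cfsg.Agent.Lib.Helper81.OE
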