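import Cfsg.Agent.Lib.Helper81.OE.YBase
import Cfsg.Agent.Lib.Helper81.OE.YP4a
import Cfsg.Agent.Lib.Helper84.OE.YRS

set_option autoImplicit false
set_option linter.unusedSectionVars false

namespace Cfsg.Agent.Lib.Helper81.OE

open Cfsg Cfsg.Geo Matrix Cfsg.Agent.Lib.Helper13.Asch Cfsg.Agent.Lib.Helper90.Sp
open Cfsg.Agent.Lib.Helper57.OE
open scoped Kronecker MatrixGroups

variable {ι : Type} [Fintype ι] [DecidableEq ι] {F : Type*} [Field F] {Q : (ι → F) → F}

theorem sum_single_smul {κ : Type*} [Fintype κ] [DecidableEq κ] (bb : κ → (ι → F)) (p : κ) (c : F) :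
    ∑ y, (Pi.single p c : κ → F) y • bb y = c • bb p := by
  rw [Finset.sum_eq_single p]
  · simp
  · intro b _ hb
    rw [Pi.single_eq_of_ne hb, zero_smul]
  · simp

/-- YP4 -/
theorem planes_plus_four [Fintype F] (hq : Fintype.card F = 4)
    (hQ : IsNondegenerateQuadraticForm Q)
    {H : Subgroup (GL ι F)} (hH : FixesQuadForm (matrixSet H) Q) {t : ℕ}
    (D : Fin t → Submodule F (ι → F)) (hD : IsOrthogonalMDecomposition Q 2 D)
    (hplus : ∀ i, IsPlusTypeOn Q (D i)) (hHD : H ≤ decompositionStabilizer D) :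
    RSub Q H := by
  have hdec := hD.decomp
  have h4 : (4 : F) = 0 := by
    have := Nat.cast_card_eq_zero F
    rw [hq] at this
    exact_mod_cast this
  have h2 : (2 : F) = 0 := by
    have : (2 : F) * 2 = 0 := by linear_combination h4
    exact mul_self_eq_zero.mp this
  have hchar : CharP F 2 := CharTwo.of_one_ne_zero_of_two_eq_zero one_ne_zero h2
  have hpp : Fact (Nat.Prime 2) := ⟨Nat.prime_two⟩
  have hbot : Nat.card (⊥ : Subfield F) = 2 := Subfield.card_bot F 2
  choose a b haD hbD hQa hQb hab hall using fun i =>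
    plane_plus_four_local hq hQ (D i) (hdec.nondegenerate i) (hdec.decomp.finrank_eq i) (hplus i)
  let bb : Fin t × Fin 2 → (ι → F) := fun x => if x.2 = 0 then a x.1 else b x.1
  have hbb0 : ∀ i, bb (i, 0) = a i := fun i => rfl
  have hbb1 : ∀ i, bb (i, 1) = b i := fun i => rfl
  have hbbD : ∀ x, bb x ∈ D x.1 := by
    rintro ⟨i, s⟩
    fin_cases s
    · exact haD i
    · exact hbD i
  have hbbQ : ∀ x, Q (bb x) = 1 := by
    rintro ⟨i, s⟩
    fin_cases s
    · exact hQa i
    · exact hQb i
  have hself : ∀ v, QuadraticMap.polar Q v v = 0 := by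
    intro v
    rw [polar_self' hQ, h2, zero_mul]
  have hgram : ∀ x y, QuadraticMap.polar Q (bb x) (bb y) =
      if x.1 = y.1 ∧ x.2 ≠ y.2 then 1 else 0 := by
    rintro ⟨i, s⟩ ⟨j, s'⟩
    by_cases hij : i = j
    · subst hij
      fin_cases s <;> fin_cases s'
      · simpa [hbb0] using hself (a i)
      · simpa [hbb0, hbb1] using hab i
      · simpa [hbb0, hbb1] using (QuadraticMap.polar_comm Q (b i) (a i)).trans (hab i)
      · simpa [hbb1] using hself (b i)
    · rw [if_neg (by simp [hij])]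
      exact hdec.orthogonal i j hij _ (hbbD (i, s)) _ (hbbD (j, s'))
  have hli : LinearIndependent F bb := by
    apply linearIndependent_of_dual hQ
    rintro ⟨i, s⟩
    refine ⟨bb (i, s + 1), ?_⟩
    rintro ⟨j, s'⟩
    rw [hgram]
    by_cases hij : i = j
    · subst hij
      fin_cases s <;> fin_cases s' <;> simp
    · have : ¬ ((j, s') = (i, s)) := by
        intro h
        exact hij (congrArg Prod.fst h).symm
      rw [if_neg (by simp [hij]), if_neg this]
  have hct := Cfsg.Agent.Lib.Helper55.Asch.card_of_decomp D hdec.decomp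
  refine Cfsg.Agent.Lib.Helper84.OE.rsub_of_rational_basis hQ (⊥ : Subfield F) 2 Nat.prime_two
    (by rw [hq, hbot]; norm_num) 1 one_ne_zero bb hli (by simp [← hct]) ?_ ?_ ?_
  · intro x
    rw [hbbQ, mul_one]
    exact Subfield.one_mem _
  · intro x y
    rw [hgram, one_mul]
    split_ifs
    · exact Subfield.one_mem _
    · exact Subfield.zero_mem _
  · intro h hh x
    obtain ⟨σ, hσ⟩ := exists_perm_mem hHD h hh
    have hsingle : ∀ (p : Fin t × Fin 2) (y), (Pi.single p (1 : F) : Fin t × Fin 2 → F) y ∈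
        (⊥ : Subfield F) := by
      intro p y
      by_cases hy : y = p
      · subst hy; simpa using Subfield.one_mem _
      · rw [Pi.single_eq_of_ne hy]; exact Subfield.zero_mem _
    rcases hall (σ x.1) _ (hσ x.1 _ (hbbD x)) (by rw [Q_mulVec hH h hh, hbbQ]) with h1 | h1 | h1
    · refine ⟨Pi.single (σ x.1, 0) 1, hsingle _, ?_⟩
      rw [sum_single_smul, h1, one_smul, hbb0]
    · refine ⟨Pi.single (σ x.1, 1) 1, hsingle _, ?_⟩
      rw [sum_single_smul, h1, one_smul, hbb1]
    · refine ⟨Pi.single (σ x.1, 0) 1 + Pi.single (σ x.1, 1) 1,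
        fun y => Subfield.add_mem _ (hsingle _ y) (hsingle _ y), ?_⟩
      simp only [Pi.add_apply, add_smul, Finset.sum_add_distrib]
      rw [sum_single_smul, sum_single_smul, h1, one_smul, one_smul, hbb0, hbb1]

end Cfsg.Agent.Lib.Helper81.OE
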